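import Cfsg.Agent.Lin.Basic
import Cfsg.Agent.Fi.Large

/-!
Centralizers of involutions in the holomorph of an elementary abelian 2-group.
-/

set_option autoImplicit false

namespace Cfsg.Agent.Lin

open Module CA.Fi CA.FG.Comp

theorem zmod2_cases (a : ZMod 2) : a = 0 ∨ a = 1 := by revert a; decide

section Trans

variable {V : Type*} [AddCommGroup V] [Module (ZMod 2) V]

theorem add_self_two (v : V) : v + v = 0 := by
  rw [← two_smul (ZMod 2), show (2 : ZMod 2) = 0 from rfl, zero_smul]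

/-- The general linear group over the field with two elements is transitive on non-zero
vectors. -/
theorem exists_equiv_map {v w : V} (hv : v ≠ 0) (hw : w ≠ 0) :
    ∃ a : V ≃ₗ[ZMod 2] V, a v = w := by
  obtain ⟨f, f1, f2⟩ : ∃ f : Dual (ZMod 2) V, f v = 1 ∧ f w = 1 := by
    obtain ⟨f, hf⟩ := Projective.exists_dual_eq_one (ZMod 2) hv
    obtain ⟨g, hg⟩ := Projective.exists_dual_eq_one (ZMod 2) hw
    rcases zmod2_cases (f w) with h1 | h1
    · rcases zmod2_cases (g v) with h2 | h2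
      · exact ⟨f + g, by simp [hf, h2], by simp [hg, h1]⟩
      · exact ⟨g, h2, hg⟩
    · exact ⟨f, hf, h1⟩
  let T : V →ₗ[ZMod 2] V := LinearMap.id + f.smulRight (w - v)
  have hT : ∀ x, T (T x) = x := fun x => by
    simp [T, f1, f2, add_assoc, add_self_two]
  exact ⟨LinearEquiv.ofInvolutive T hT, by change T v = w; simp [T, f1]⟩

theorem eq_bot_of_normal_two [Finite V] (N : Subgroup (V ≃ₗ[ZMod 2] V)) [hN : N.Normal]
    (h : IsPGroup 2 N) : N = ⊥ := by
  rw [eq_bot_iff]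
  intro g hg
  refine LinearEquiv.ext fun w => ?_
  by_cases hw : w = 0
  · simp [hw]
  have : Nontrivial V := ⟨w, 0, hw⟩
  obtain ⟨v, hv, h0⟩ := h.exists_fixed_point_of_prime_dvd_card_of_fixed_point (α := V) (by
    rw [natCard_eq_pow_finrank (K := ZMod 2), Nat.card_zmod]
    exact dvd_pow_self 2 finrank_pos.ne') (a := 0) fun g => map_zero g.1
  obtain ⟨a, rfl⟩ := exists_equiv_map h0.symm hw
  have := congrArg a (hv ⟨_, hN.conj_mem' g hg a⟩)
  simpa [Subgroup.mk_smul] using this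

end Trans

variable {Y : Type*} [AddCommGroup Y] [Module (ZMod 2) Y]

/-- Transvections with centre `(1, 0)`. -/
def tv (f : Dual (ZMod 2) Y) : (ZMod 2 × Y) ≃ₗ[ZMod 2] (ZMod 2 × Y) :=
  LinearEquiv.ofInvolutive
    (((LinearMap.fst _ _ _) + f.comp (LinearMap.snd _ _ _)).prod (LinearMap.snd _ _ _))
    fun x => by simp [add_assoc, add_self_two]

theorem tv_apply (f : Dual (ZMod 2) Y) (x : ZMod 2 × Y) : tv f x = (x.1 + f x.2, x.2) := rfl

theorem tv_mul (f g : Dual (ZMod 2) Y) : tv f * tv g = tv (f + g) :=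
  LinearEquiv.ext fun x => by simp [tv_apply, add_assoc, add_comm, add_left_comm]

theorem tv_zero : tv (0 : Dual (ZMod 2) Y) = 1 := LinearEquiv.ext fun x => by simp [tv_apply]

theorem tv_inv (f : Dual (ZMod 2) Y) : (tv f)⁻¹ = tv f := rfl

/-- The embedding of the smaller linear group. -/
def incl (R Y : Type*) [Field R] [AddCommGroup Y] [Module R Y] :
    (Y ≃ₗ[R] Y) →* (R × Y) ≃ₗ[R] (R × Y) :=
  MonoidHom.mk' (fun b => (LinearEquiv.refl R R).prodCongr b) fun _ _ => rfl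

theorem incl_apply {R Y : Type*} [Field R] [AddCommGroup Y] [Module R Y] (b : Y ≃ₗ[R] Y)
    (x : R × Y) : incl R Y b x = (x.1, b x.2) := rfl

theorem incl_tv (b : Y ≃ₗ[ZMod 2] Y) (f : Dual (ZMod 2) Y) :
    incl _ Y b * tv f * (incl _ Y b)⁻¹ = tv (f.comp b.symm.toLinearMap) := by
  rw [← map_inv]
  exact LinearEquiv.ext fun x => Prod.ext rfl (b.apply_symm_apply x.2)

theorem exists_tv_mul_incl [Finite Y] {a : (ZMod 2 × Y) ≃ₗ[ZMod 2] (ZMod 2 × Y)}
    (ha : a (1, 0) = (1, 0)) : ∃ f b, a = tv f * incl _ Y b := by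
  have h1 : ∀ x : ZMod 2 × Y, a x = x.1 • (1, 0) + a (0, x.2) := fun x => by
    rw [← ha, ← map_smul, ← map_add]; simp
  let L := (LinearMap.snd _ _ _).comp (a.toLinearMap.comp (LinearMap.inr (ZMod 2) (ZMod 2) Y))
  have hL : Function.Injective L := (injective_iff_map_eq_zero L).2 fun y hy => by
    have : a (0, y) = a ((a (0, y)).1, 0) := by
      rw [h1 (_, 0), show a (0, 0) = 0 from map_zero a]
      exact Prod.ext (by simp) (hy.trans (by simp))
    exact congrArg Prod.snd (a.injective this)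
  refine ⟨((LinearMap.fst _ _ _).comp (a.toLinearMap.comp (LinearMap.inr (ZMod 2) (ZMod 2) Y))).comp
    (LinearEquiv.ofInjectiveEndo L hL).symm.toLinearMap, LinearEquiv.ofInjectiveEndo L hL,
    LinearEquiv.ext fun x => ?_⟩
  rw [h1]
  refine Prod.ext ?_ (by simp [tv_apply, incl_apply, L])
  change _ = x.1 + (a (0, (LinearEquiv.ofInjectiveEndo L hL).symm
    (LinearEquiv.ofInjectiveEndo L hL x.2))).1
  simp only [LinearEquiv.symm_apply_apply]
  simp

/-- The structure of the centralizer of an involution in a holomorph. -/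
theorem hol {G : Type*} [Group G] [Finite G] [Finite Y] [Nontrivial Y] (ι : ZMod 2 × Y → G)
    (hι : ∀ v w, ι (v + w) = ι v * ι w) (hinj : Function.Injective ι)
    (σ : ((ZMod 2 × Y) ≃ₗ[ZMod 2] (ZMod 2 × Y)) →* G)
    (hσ : ∀ a v, σ a * ι v * (σ a)⁻¹ = ι (a v))
    (hC : ∀ g, Commute g (ι (1, 0)) → ∃ v a, g = ι v * σ a) {Q : Subgroup G}
    (hQ : Q = (pCore 2 (Subgroup.centralizer {ι (1, 0)})).map
      (Subgroup.centralizer {ι (1, 0)}).subtype) :
    LE Q (ι (1, 0)) ∧ Nat.card Q = 2 * Nat.card Y ^ 2 ∧ (∀ v, ι v ∈ Q) ∧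
      ∃ K : Subgroup G, K ≤ Subgroup.centralizer {ι (1, 0)} ∧ Q ⊓ K = ⊥ ∧
        Q ⊔ K = Subgroup.centralizer {ι (1, 0)} ∧ Nonempty (K ≃* (Y ≃ₗ[ZMod 2] Y)) := by
  have i0 : ι 0 = 1 := by simpa using hι 0 0
  have ic : ∀ v w, Commute (ι v) (ι w) := fun v w => by
    rw [Commute, SemiconjBy, ← hι, ← hι, add_comm]
  have hσ' : ∀ a v, σ a * ι v = ι (a v) * σ a := fun a v => by rw [← hσ]; simp
  have hm : ∀ v a w b, ι v * σ a * (ι w * σ b) = ι (v + a w) * σ (a * b) := fun v a w b => by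
    rw [hι, map_mul, mul_assoc, ← mul_assoc (σ a), hσ']; simp only [mul_assoc]
  have hc : ∀ v a w, Commute (ι v * σ a) (ι w) ↔ a w = w := fun v a w => by
    rw [← conj_eq_iff_commute, ← hinj.eq_iff, ← conj_eq_iff_commute.2 (ic v (a w)), ← hσ]
    simp only [mul_assoc, mul_inv_rev]
  have hu : ∀ v a w b, ι v * σ a = ι w * σ b → v = w ∧ a = b := fun v a w b H => by
    obtain rfl : a = b := LinearEquiv.ext fun x => hinj (by
      have := congrArg (fun g => g * ι x * g⁻¹) H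
      simp only [mul_inv_rev] at this
      rw [← conj_eq_iff_commute.2 (ic v (a x)), ← conj_eq_iff_commute.2 (ic w (b x)), ← hσ, ← hσ]
      simpa only [mul_assoc] using this)
    exact ⟨hinj (mul_right_cancel H), rfl⟩
  let Q₀ : Subgroup G :=
    { carrier := {g | ∃ v f, g = ι v * σ (tv f)}
      mul_mem' := by
        rintro _ _ ⟨v, f, rfl⟩ ⟨w, g, rfl⟩
        exact ⟨_, _, by rw [hm, tv_mul]⟩
      one_mem' := ⟨0, 0, by rw [tv_zero, i0]; simp⟩
      inv_mem' := by
        rintro _ ⟨v, f, rfl⟩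
        refine ⟨tv f v, f, inv_eq_of_mul_eq_one_left ?_⟩
        rw [hm, tv_mul, add_self_two, add_self_two, tv_zero, i0]; simp }
  have q1 : ∀ v, ι v ∈ Q₀ := fun v => ⟨v, 0, by rw [tv_zero]; simp⟩
  have q2 : ∀ f, σ (tv f) ∈ Q₀ := fun f => ⟨0, f, by rw [i0, one_mul]⟩
  have hz : ∀ a : ZMod 2, ι (a, 0) = 1 ∨ ι (a, 0) = ι (1, 0) := fun a => by
    rcases zmod2_cases a with rfl | rfl
    exacts [Or.inl i0, Or.inr rfl]
  have es : ES Q₀ (ι (1, 0)) := by
    refine ⟨q1 _, fun H => by simpa using hinj (H.trans i0.symm), by rw [← hι, add_self_two, i0],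
      ?_, fun x hx h => ?_, ?_, ?_⟩
    · rintro _ ⟨v, f, rfl⟩
      exact ((hc ..).2 (by simp [tv_apply])).symm
    · obtain ⟨v, f, rfl⟩ := hx
      have h1 : tv f = 1 := LinearEquiv.ext fun w => (hc ..).1 (h _ (q1 w))
      rw [h1, map_one, mul_one] at h ⊢
      have h2 : v.2 = 0 := (forall_dual_apply_eq_zero_iff (ZMod 2) _).1 fun g => by
        have := (hc 0 _ v).1 (by simpa [i0] using (h _ (q2 g)).symm)
        simpa [tv_apply, Prod.ext_iff] using this
      rw [show v = (v.1, 0) from Prod.ext rfl h2]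
      exact hz _
    · rintro _ ⟨v, f, rfl⟩ _ ⟨w, g, rfl⟩
      have : ι v * σ (tv f) * (ι w * σ (tv g)) =
          ι w * σ (tv g) * (ι v * σ (tv f)) * ι (f w.2 + g v.2, 0) := by
        rw [← mul_one (ι (_, 0)), ← map_one σ, hm, hm, hm, mul_one, tv_mul, tv_mul, add_comm g]
        congr 2
        simp only [tv_apply, Prod.ext_iff, Prod.fst_add, Prod.snd_add, map_zero]
        exact ⟨by linear_combination -add_self_two (g v.2), by abel⟩
      rcases hz (f w.2 + g v.2) with H | H <;> rw [H] at this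
      · exact Or.inl (by rwa [mul_one] at this)
      · exact Or.inr this
    · obtain ⟨y, hy⟩ := exists_ne (0 : Y)
      exact ⟨_, q1 (0, y), fun H => hy (congrArg Prod.snd (hinj (H.trans i0.symm))),
        fun H => hy (congrArg Prod.snd (hinj H))⟩
  have dec : ∀ g, Commute g (ι (1, 0)) → ∃ q ∈ Q₀, ∃ b, g = q * σ (incl _ Y b) := fun g hg => by
    obtain ⟨v, a, rfl⟩ := hC g hg
    obtain ⟨f, b, rfl⟩ := exists_tv_mul_incl ((hc ..).1 hg)
    exact ⟨_, ⟨v, f, rfl⟩, b, by rw [map_mul, mul_assoc]⟩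
  have le : LE Q₀ (ι (1, 0)) := by
    refine ⟨es, fun c h => ?_, fun c h x hx => ?_⟩
    · obtain ⟨v, a, rfl⟩ := hC c (h _ (q1 _))
      rw [show a = 1 from LinearEquiv.ext fun w => (hc ..).1 (h _ (q1 w)), map_one, mul_one]
      exact q1 v
    · obtain ⟨q, hq, b, rfl⟩ := dec c h
      obtain ⟨v, f, rfl⟩ := hx
      have := mul_mem (mul_mem hq (mul_mem (q1 (incl _ Y b v)) (q2 (f.comp b.symm.toLinearMap))))
        (inv_mem hq)
      rw [← incl_tv, ← hσ, map_mul, map_mul, map_inv] at this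
      convert this using 1
      group
  have k1 : ∀ b, σ (incl _ Y b) ∈ Subgroup.centralizer {ι (1, 0)} := fun b =>
    mem_cent_iff.2 (by simpa [i0] using (hc 0 (incl _ Y b) (1, 0)).2 (by simp [incl_apply]))
  have k2 : ∀ b, σ (incl _ Y b) ∈ Q₀ → b = 1 := by
    rintro b ⟨v, f, H⟩
    have := (hu 0 _ v _ (by rwa [i0, one_mul])).2
    exact LinearEquiv.ext fun y => congrArg (fun a => (a (0, y)).2) this
  let κ : (Y ≃ₗ[ZMod 2] Y) →* Subgroup.centralizer {ι (1, 0)} :=
    (σ.comp (incl _ Y)).codRestrict _ k1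
  have k3 : Function.Injective (σ.comp (incl _ Y)) :=
    (injective_iff_map_eq_one _).2 fun b hb => k2 b (by rw [show σ _ = 1 from hb]; exact one_mem _)
  have hle : Q₀ ≤ Q := by
    rw [hQ, ← Subgroup.map_subgroupOf_eq_of_le es.le_cent]
    exact Subgroup.map_mono (le_pCore ⟨fun x hx g => le.norm g (mem_cent_iff.1 g.2) _ hx⟩
      (es.isPGroup.comap_subtype))
  obtain rfl : Q = Q₀ := by
    refine le_antisymm (fun g hg => ?_) hle
    rw [hQ] at hg hle
    obtain ⟨q, hq, b, rfl⟩ := dec g (mem_cent_iff.1 (Subgroup.map_subtype_le _ hg))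
    have h1 := eq_bot_of_normal_two ((pCore 2 _).comap κ) ((pCore_isPGroup 2 _).comap_of_injective κ
      fun a b H => k3 (congrArg Subtype.val H))
    obtain ⟨x, hx, hx'⟩ := (Subgroup.mul_mem_cancel_left _ (hle hq)).1 hg
    have h2 : b ∈ (pCore 2 _).comap κ := by
      rwa [Subgroup.mem_comap, show κ b = x from Subtype.ext hx'.symm]
    rw [h1, Subgroup.mem_bot] at h2
    simpa [h2] using hq
  refine ⟨le, ?_, q1, (σ.comp (incl _ Y)).range, ?_, ?_, ?_, ⟨(MonoidHom.ofInjective k3).symm⟩⟩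
  · refine (Nat.card_congr (Equiv.ofBijective (fun p : (ZMod 2 × Y) × Dual (ZMod 2) Y =>
      (⟨_, p.1, p.2, rfl⟩ : Q₀)) ⟨fun p p' H => ?_, ?_⟩)).symm.trans ?_
    · obtain ⟨h1, h2⟩ := hu _ _ _ _ (congrArg Subtype.val H)
      exact Prod.ext h1 (LinearMap.ext fun y => by
        simpa [tv_apply] using congrArg (fun a => (a (0, y)).1) h2)
    · rintro ⟨_, v, f, rfl⟩
      exact ⟨(v, f), rfl⟩
    · classical
      rw [Nat.card_prod, Nat.card_prod, Nat.card_zmod,
        Nat.card_congr (Free.chooseBasis (ZMod 2) Y).toDualEquiv.toEquiv.symm]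
      ring
  · rintro _ ⟨b, rfl⟩
    exact k1 b
  · rw [eq_bot_iff]
    rintro _ ⟨h1, b, rfl⟩
    rw [k2 b h1, map_one]
    exact one_mem _
  · refine le_antisymm (sup_le es.le_cent ?_) fun g hg => ?_
    · rintro _ ⟨b, rfl⟩
      exact k1 b
    · obtain ⟨q, hq, b, rfl⟩ := dec g (mem_cent_iff.1 hg)
      exact Subgroup.mul_mem_sup hq ⟨b, rfl⟩

/-- Matrices and linear automorphisms. -/
noncomputable def glEquiv (ι R : Type*) [Fintype ι] [DecidableEq ι] [CommRing R] :
    GL ι R ≃* ((ι → R) ≃ₗ[R] (ι → R)) :=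
  Matrix.GeneralLinearGroup.toLin.trans (LinearMap.GeneralLinearGroup.generalLinearEquiv R (ι → R))

/-- Over the field with two elements the special and general linear groups coincide. -/
noncomputable def slEquivTwo (ι : Type*) [Fintype ι] [DecidableEq ι] :
    Matrix.SpecialLinearGroup ι (ZMod 2) ≃* ((ι → ZMod 2) ≃ₗ[ZMod 2] (ι → ZMod 2)) :=
  (MulEquiv.ofBijective Matrix.SpecialLinearGroup.toGL ⟨Matrix.SpecialLinearGroup.toGL_injective,
    MonoidHom.range_eq_top.1 (by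
      rw [range_toGL, eq_top_iff]
      exact fun g _ => Subsingleton.elim _ _)⟩).trans (glEquiv ι (ZMod 2))

theorem slEquivTwo_apply {ι : Type*} [Fintype ι] [DecidableEq ι]
    (g : Matrix.SpecialLinearGroup ι (ZMod 2)) (v : ι → ZMod 2) :
    slEquivTwo ι g v = g.1.mulVec v := rfl

theorem realizeEqns_Lin_Hol : True := by
  have := @Cfsg.Agent.Lin.slEquivTwo.eq_1.{0}
  have := @Cfsg.Agent.Lin.slEquivTwo.eq_def.{0}
  have := @Cfsg.Agent.Lin.slEquivTwo.congr_simp.{0}
  have := @Cfsg.Agent.Lin.incl.eq_1.{0,0}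
  have := @Cfsg.Agent.Lin.incl.eq_def.{0,0}
  have := @Cfsg.Agent.Lin.incl.congr_simp.{0,0}
  have := @Cfsg.Agent.Lin.glEquiv.eq_1.{0,0}
  have := @Cfsg.Agent.Lin.glEquiv.eq_def.{0,0}
  have := @Cfsg.Agent.Lin.glEquiv.congr_simp.{0,0}
  have := @Cfsg.Agent.Lin.tv.eq_1.{0}
  have := @Cfsg.Agent.Lin.tv.eq_def.{0}
  have := @Cfsg.Agent.Lin.tv.congr_simp.{0}
  trivial

end Cfsg.Agent.Lin
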