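import Cfsg.Agent.Lin.Transport
import Cfsg.Agent.Symp.Order

/-! The isomorphisms `PSL(2,7) ≃ SL(3,2)` and `Sp(4,2) ≃ S₆`. -/

set_option autoImplicit false

open Matrix
open scoped MatrixGroups

namespace Cfsg.Agent.Lin

/-- Pairs `(g, h)` such that `a` intertwines `g` with an affine map with linear part `h`. -/
def affinePairs (G H : Type*) {V W : Type*} [Group G] [Group H] [AddCommGroup V] [AddCommGroup W]
    [DistribMulAction G V] [DistribMulAction H W] (a : V → W) : Subgroup (G × H) where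
  carrier := {x | ∀ v w, v ≠ 0 → w ≠ 0 → x.2 • (a v - a w) = a (x.1 • v) - a (x.1 • w)}
  mul_mem' {x y} hx hy v w hv hw := by
    rw [Prod.fst_mul, Prod.snd_mul, mul_smul, mul_smul, mul_smul, hy v w hv hw,
      hx _ _ ((smul_ne_zero_iff_ne _).2 hv) ((smul_ne_zero_iff_ne _).2 hw)]
  one_mem' v w _ _ := by simp
  inv_mem' {x} hx v w hv hw := by
    rw [Prod.fst_inv, Prod.snd_inv, inv_smul_eq_iff,
      hx _ _ ((smul_ne_zero_iff_ne _).2 hv) ((smul_ne_zero_iff_ne _).2 hw), smul_inv_smul,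
      smul_inv_smul]

theorem mem_affinePairs_of_base {G H V W : Type*} [Group G] [Group H] [AddCommGroup V]
    [AddCommGroup W] [DistribMulAction G V] [DistribMulAction H W] (a : V → W) (g : G) (h : H)
    (w : V) (hh : ∀ v, v ≠ 0 → h • (a v - a w) = a (g • v) - a (g • w)) :
    (g, h) ∈ affinePairs G H a := by
  intro u v hu hv
  have : a u - a v = (a u - a w) - (a v - a w) := by abel
  rw [this, smul_sub, hh u hu, hh v hv]
  simp

instance factPrimeSeven : Fact (Nat.Prime 7) := ⟨by norm_num⟩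

/-- An affine structure on the projective line over `ZMod 7`. -/
def aff7 (v : Fin 2 → ZMod 7) : Fin 3 → ZMod 2 :=
  if v 0 = 0 then ![0, 0, 0] else
    (![![0, 0, 1], ![0, 1, 0], ![1, 0, 0], ![0, 1, 1], ![1, 1, 0], ![1, 1, 1], ![1, 0, 1]] :
      Fin 7 → Fin 3 → ZMod 2) (v 1 * v 0 ^ 5)

theorem psl2_seven_equiv : Nonempty (PSL(2, ZMod 7) ≃* SL(3, ZMod 2)) := by
  have := ProjectiveSpecialLinearGroup.rank_two_simple (F := ZMod 7) (by simp)
  refine nonempty_equiv_of_prod_quot _ (affinePairs _ _ aff7)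
    (exists_snd_of_transvection_zmod _ fun i j hij => ?_) ?_ ?_ ?_
  · fin_cases i <;> fin_cases j
    · exact absurd rfl hij
    · exact ⟨⟨!![0, 1, 0; 0, 0, 1; 1, 0, 1], by decide⟩,
        mem_affinePairs_of_base _ _ _ ![0, 1] (by decide +kernel +revert)⟩
    · exact ⟨⟨!![0, 1, 0; 1, 0, 1; 1, 0, 0], by decide⟩,
        mem_affinePairs_of_base _ _ _ ![0, 1] (by decide +kernel +revert)⟩
    · exact absurd rfl hij
  · intro z hz
    obtain ⟨r, hr, hz⟩ := Matrix.SpecialLinearGroup.mem_center_iff.1 hz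
    have h1 : ∀ v : Fin 2 → ZMod 7, z • v = r • v := fun v => by
      rw [Matrix.SpecialLinearGroup.smul_def, ← hz]
      ext i
      simp [mulVec_diagonal]
    have h2 : ∀ (r : ZMod 7) (v : Fin 2 → ZMod 7), r ^ 2 = 1 → aff7 (r • v) = aff7 v := by
      decide +kernel
    intro v w _ _
    simp only [one_smul, h1, h2 r _ (by simpa using hr)]
  · refine ⟨SpecialLinearGroup.transvection (i := 0) (j := 1) (by decide) 1, fun h => ?_⟩
    have := h ![0, 1] ![1, 0] (by decide) (by decide)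
    revert this
    decide +kernel
  · have h1 := card_PSL2 (F := ZMod 7) (ZMod.card 7)
    have h2 := card_SL (F := ZMod 2) (ZMod.card 2) 3 (by norm_num)
    change _ ≤ Nat.card PSL(2, ZMod 7)
    generalize Nat.card PSL(2, ZMod 7) = N at h1 ⊢
    generalize Nat.card SL(3, ZMod 2) = N' at h2 ⊢
    norm_num [Fin.prod_univ_three] at h1 h2
    omega

theorem center_SL_eq_bot_of_card_two {ι F : Type*} [Fintype ι] [DecidableEq ι] [Field F]
    [Fintype F] (hF : Fintype.card F = 2) :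
    Subgroup.center (Matrix.SpecialLinearGroup ι F) = ⊥ := by
  rcases isEmpty_or_nonempty ι with h | h
  · exact Matrix.SpecialLinearGroup.center_eq_bot_of_subsingleton
  · exact Subgroup.eq_bot_of_card_eq _ (by rw [card_center_SL, Nat.card_eq_fintype_card, hF]; simp)

/-- Vectors realising the permutation module of `S₆` over `ZMod 2`. -/
def mS6 : Fin 6 → Fin 2 ⊕ Fin 2 → ZMod 2 :=
  ![Sum.elim ![0, 0] ![0, 1], Sum.elim ![0, 1] ![0, 0], Sum.elim ![0, 1] ![1, 1],
    Sum.elim ![1, 1] ![0, 1], Sum.elim ![1, 1] ![1, 1], 0]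

theorem sp4_two_equiv : Nonempty (symplecticGroup (Fin 2) (ZMod 2) ≃* Equiv.Perm (Fin 6)) := by
  have hφ : ∀ v : Fin 2 ⊕ Fin 2 → ZMod 2, ∃ i j, v = mS6 i - mS6 j := by decide +kernel
  let D := equivariantPairs (symplecticGroup (Fin 2) (ZMod 2)) (Equiv.Perm (Fin 6))
    (fun y : Fin 6 × Fin 6 => mS6 y.1 - mS6 y.2)
  refine nonempty_equiv_of_prod D ?_ ?_ ?_
  · have : D.map (MonoidHom.fst _ _) = ⊤ := Symp.eq_top_of_tv_mem _ fun a c => by
      have hc : c = 0 ∨ c = 1 := by revert c; decide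
      rcases hc with rfl | rfl
      · rw [Symp.tv_zero_right]; exact one_mem _
      obtain ⟨i, j, rfl⟩ := hφ a
      refine ⟨(_, Equiv.swap i j), ?_, rfl⟩
      rintro ⟨k, l⟩
      simp only [Symp.tv_smul, Symp.sform_apply, one_mul, Prod.smul_mk, Equiv.Perm.smul_def]
      revert i j k l
      decide +kernel
    intro g
    obtain ⟨⟨g', x⟩, hd, rfl⟩ : g ∈ D.map (MonoidHom.fst _ _) := this ▸ Subgroup.mem_top _
    exact ⟨x, hd⟩
  · intro g hg
    refine Symp.ext_smul fun v => ?_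
    obtain ⟨i, j, rfl⟩ := hφ v
    simpa using hg (i, j)
  · rw [Symp.card_symplecticGroup, Nat.card_perm]
    simp [Nat.factorial, Finset.prod_range_succ]

end Cfsg.Agent.Lin
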